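import Cfsg.Agent.SolvSignalizer.TwoPrime.Closure
import Cfsg.Agent.SolvSignalizer.Reduce
import Cfsg.Agent.SolvSignalizer.PrimeCoreOf

/-!
The commutator closure of a point `e` of `A`.

* `completes_of_commutators_le`: if one member contains all `⁅θ d, e⁆` then `θ` is complete;
* `commutator_le_uCoreOf`: if `e` centralises a Sylow `x`-subgroup of `X` then `⁅X, e⁆ ≤ O_{x'}(X)`;
* `completes_of_centralizes_qmember`: if one maximal `x`-member is centralised by some `e ≠ 1` and
  a member contains the normal `x'`-subgroups of the `θ d`, then `θ` is complete.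
-/

set_option autoImplicit false
set_option linter.unusedSectionVars false

namespace CfsgLib.SolvSignalizer

open Cfsg CfsgLib.Coprime CfsgLib.Signalizer
open scoped commutatorElement

variable {G : Type*} [Group G] [Finite G] {p : ℕ} [Fact p.Prime] {A : Subgroup G}
  {θ : G → Subgroup G}

theorem mem_signalizerInf_of_centralizes (hθ : IsSolvableSignalizerFunctor p A θ) {d : G}
    (hd : d ∈ A) (hd1 : d ≠ 1) {c : G} (hc : c ∈ θ d)
    (hcA : c ∈ Subgroup.centralizer (A : Set G)) : c ∈ signalizerInf A θ :=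
  mem_signalizerInf.mpr fun b hb hb1 => hθ.1.2.2.2 d hd hd1 b hb hb1
    ⟨hc, Subgroup.centralizer_le (Set.singleton_subset_iff.mpr hb) hcA⟩

theorem completes_of_commutators_le (h : Setup p A θ) {W : Subgroup G}
    (hW : W ∈ signalizerFamily p A θ) {e : G} (he : e ∈ A) (he1 : e ≠ 1)
    (hle : ∀ d ∈ A, d ≠ 1 → ⁅θ d, Subgroup.zpowers e⁆ ≤ W) : Completes p A θ := by
  set Z := Subgroup.zpowers e with hZ
  have hZA : Z ≤ A := Subgroup.zpowers_le_of_mem he
  have hAZ : A ≤ Subgroup.normalizer (Z : Set G) :=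
    le_normalizer_of_conj_mem fun x hx z hz => by
      rwa [show x * z = z * x from congrArg Subtype.val (h.elem.1.1.comm ⟨x, hx⟩ ⟨z, hZA hz⟩),
        mul_inv_cancel_right]
  set E : Subgroup G := ⨆ d : {d : G // d ∈ A ∧ d ≠ 1}, ⁅θ d, Z⁆ with hE
  have hEd : ∀ d ∈ A, d ≠ 1 → ⁅θ d, Z⁆ ≤ E := fun d hd hd1 =>
    le_iSup (fun d : {d : G // d ∈ A ∧ d ≠ 1} => ⁅θ d, Z⁆) ⟨d, hd, hd1⟩
  have hEW : E ≤ W := iSup_le fun d => hle d d.2.1 d.2.2
  have hAE : A ≤ Subgroup.normalizer (E : Set G) := by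
    refine le_normalizer_of_conj_mem fun b hb z hz => ?_
    suffices hc : E ≤ E.comap (MulAut.conj b).toMonoidHom from hc hz
    exact iSup_le fun d w hw => hEd d d.2.1 d.2.2 (conj_mem_of_le_normalizer
      (le_normalizer_commutator (theta_le_normalizer h.functor d.2.1 d.2.2) hAZ) hb hw)
  have hEm := mem_family_of_le hW hEW hAE
  -- the lines through `e` normalise `E`
  have hline : ∀ L : Subgroup G, L ≤ A → Nat.card L = p ^ 2 → e ∈ L →
      signalizerInf L θ ≤ Subgroup.normalizer (E : Set G) := by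
    intro L hL hLc heL
    refine le_normalizer_of_conj_mem fun g hg z hz => ?_
    suffices hc : E ≤ E.comap (MulAut.conj g).toMonoidHom from hc hz
    have hge : g * e = e * g := (Subgroup.mem_centralizer_iff.mp
      (h.functor.1.1 e he he1 (mem_signalizerInf.mp hg e heL he1)) e rfl).symm
    refine iSup_le fun d => ?_
    have heK : e ∈ Subgroup.normalizer (E.comap (MulAut.conj g).toMonoidHom : Set G) := by
      refine (show Z ≤ _ from le_normalizer_of_conj_mem fun u hu w hw => ?_) (Subgroup.mem_zpowers e)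
      have huy : g * u = u * g := by
        obtain ⟨i, rfl⟩ := Subgroup.mem_zpowers_iff.mp hu
        exact ((show Commute g e from hge).zpow_right i).eq
      show g * (u * w * u⁻¹) * g⁻¹ ∈ E
      rw [show g * (u * w * u⁻¹) * g⁻¹ = (g * u) * w * (g * u)⁻¹ by group, huy,
        show u * g * w * (u * g)⁻¹ = u * (g * w * g⁻¹) * u⁻¹ by group]
      exact conj_mem_of_le_normalizer hAE (hZA hu) hw
    refine commutator_le_of_lines h.elem h.card_ge he (θ d) _ (h.functor.2 d d.2.1 d.2.2)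
      (theta_le_normalizer h.functor d.2.1 d.2.2)
      (family_coprime h.elem (h.functor.1.2.1 d d.2.1 d.2.2)) heK fun D hD hDc c hc => ?_
    show g * ⁅c, e⁆ * g⁻¹ ∈ E
    by_cases heD : e ∈ D
    · rw [show ⁅c, e⁆ = 1 from commutatorElement_eq_one_iff_mul_comm.mpr
        (Subgroup.mem_centralizer_iff.mp hc.2 e heD).symm, mul_one, mul_inv_cancel]
      exact one_mem E
    obtain ⟨f, hfD, hfL, hf1⟩ := exists_mem_lines h.elem h.card hD hL hDc hLc
    have hcf : c ∈ θ f := h.functor.1.2.2.2 d d.2.1 d.2.2 f (hD hfD) hf1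
      ⟨hc.1, Subgroup.centralizer_le (Set.singleton_subset_iff.mpr hfD) hc.2⟩
    have hgf := mem_signalizerInf.mp hg f hfL hf1
    rw [show g * ⁅c, e⁆ * g⁻¹ = ⁅g * c * g⁻¹, e⁆ by
      simp only [commutatorElement_def]
      calc g * (c * e * c⁻¹ * e⁻¹) * g⁻¹
          = g * c * g⁻¹ * (g * e * g⁻¹) * (g * c * g⁻¹)⁻¹ * (g * e * g⁻¹)⁻¹ := by group
        _ = g * c * g⁻¹ * e * (g * c * g⁻¹)⁻¹ * e⁻¹ := by rw [hge, mul_inv_cancel_right]]
    exact hEd f (hL hfL) hf1 (Subgroup.commutator_mem_commutator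
      (mul_mem (mul_mem hgf hcf) (inv_mem hgf)) (Subgroup.mem_zpowers e))
  -- every `θ d` normalises `E`
  have hN : ∀ d ∈ A, d ≠ 1 → θ d ≤ Subgroup.normalizer (E : Set G) := by
    intro d hd hd1
    refine (eq_commutator_sup_centralizer (hZA.trans (theta_le_normalizer h.functor hd hd1))
      (coprime_of_le hZA le_rfl (family_coprime h.elem (h.functor.1.2.1 d hd hd1)))
      (Or.inl (isSolvable_zpowers e))).ge.trans (sup_le ((hEd d hd hd1).trans Subgroup.le_normalizer) ?_)
    have hAX : A ≤ Subgroup.normalizer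
        ((θ d ⊓ Subgroup.centralizer (Z : Set G) : Subgroup G) : Set G) :=
      le_normalizer_inf' (theta_le_normalizer h.functor hd hd1) (le_normalizer_centralizer hAZ)
    refine le_of_lines' h.elem h.card_ge hAX
      (coprime_of_le le_rfl inf_le_left (family_coprime h.elem (h.functor.1.2.1 d hd hd1)))
      fun D hD hDc c hc => ?_
    obtain ⟨⟨hcd, hcZ⟩, hcD⟩ := hc
    by_cases heD : e ∈ D
    · exact hline D hD hDc heD
        (mem_signalizerInf_of_centralizer (theta_mem_family h.functor hd hd1) hD hcd hcD)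
    · obtain ⟨L, hL, hLc, heL⟩ := exists_line_mem (p := p) h.elem.2 he he1
        ((Nat.pow_le_pow_right (Fact.out : p.Prime).pos (by norm_num)).trans h.card_ge)
      exact hline L hL hLc heL (signalizerInf_anti hL (mem_signalizerInf_of_centralizes h.functor hd hd1
        hcd (mem_centralizer_of_not_mem h.elem h.card hD hDc he heD hcD
          (Subgroup.centralizer_le (Set.singleton_subset_iff.mpr (Subgroup.mem_zpowers e)) hcZ))))
  by_cases hE1 : E = ⊥
  · refine ⟨θ e, theta_mem_family h.functor he he1, fun d hd hd1 x hx => ?_⟩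
    refine h.functor.1.2.2.2 d hd hd1 e he he1 ⟨hx, ?_⟩
    exact Subgroup.centralizer_le (Set.singleton_subset_iff.mpr (Subgroup.mem_zpowers e))
      (Subgroup.commutator_eq_bot_iff_le_centralizer.mp (le_bot_iff.mp (hE1 ▸ hEd d hd hd1)) hx)
  · obtain ⟨K, hK, -, -, hmax⟩ := h.exists_local_max hEm hE1
    exact ⟨K, hK, fun d hd hd1 => hmax _ (theta_mem_family h.functor hd hd1) (hN d hd hd1)⟩

/-- `⁅X, e⁆ ≤ O_{x'}(X)` when `e` centralises a Sylow `x`-subgroup. -/
theorem commutator_le_uCoreOf {x : ℕ} [Fact x.Prime] {X : Subgroup G} {e : G}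
    (hsol : Group.IsSolvable X) (heX : e ∈ Subgroup.normalizer (X : Set G))
    (hcop : (Nat.card (Subgroup.zpowers e)).Coprime (Nat.card X)) (P : Sylow x X)
    (hP : ∀ q : X, q ∈ P → Commute e (q : G)) :
    ⁅X, Subgroup.zpowers e⁆ ≤ uCoreOf x X := by
  set N := uCoreOf x X with hNdef
  set π := QuotientGroup.mk' (pPrimeCore x X) with hπ
  set R : Subgroup X := (pCore x (X ⧸ pPrimeCore x X)).comap π with hR
  have := hsol
  have := pCore_normal x (X ⧸ pPrimeCore x X)
  have hZX : Subgroup.zpowers e ≤ Subgroup.normalizer (X : Set G) := Subgroup.zpowers_le_of_mem heX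
  have hdec : ∀ r ∈ R, ∃ n ∈ pPrimeCore x X, ∃ q ∈ P, r = n * q := by
    intro r hr
    have hle := (CfsgLib.Constrained.isPGroup_pCore (p := x)
      (G := X ⧸ pPrimeCore x X)).le_sylow_of_normal
      (P.mapSurjective (QuotientGroup.mk'_surjective (pPrimeCore x X)))
    rw [Sylow.coe_mapSurjective] at hle
    obtain ⟨q, hq, hqr⟩ := hle hr
    refine ⟨r * q⁻¹, (QuotientGroup.eq_one_iff _).mp ?_, q, hq, (inv_mul_cancel_right r q).symm⟩
    show π (r * q⁻¹) = 1
    rw [map_mul, map_inv, ← hqr, mul_inv_cancel]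
  have hNR : pPrimeCore x X ≤ R := fun n hn => by
    show π n ∈ pCore x (X ⧸ pPrimeCore x X)
    rw [show π n = 1 from (QuotientGroup.eq_one_iff n).mpr hn]
    exact one_mem _
  have hXN : X ≤ Subgroup.normalizer (N : Set G) := le_normalizer_uCoreOf x X
  have heN : e ∈ Subgroup.normalizer (N : Set G) := normalizer_le_normalizer_uCoreOf x X heX
  -- the elements acting trivially on `R / O_{x'}`
  let T : Set G := {t | t ∈ Subgroup.normalizer (N : Set G) ∧
    ∀ r ∈ R, t * (r : G) * t⁻¹ * (r : G)⁻¹ ∈ N}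
  have hTR : ∀ t ∈ T, ∀ r ∈ R, ∃ r' ∈ R, (r' : G) = t * (r : G) * t⁻¹ := by
    intro t ht r hr
    obtain ⟨n, hn, hnr⟩ := ht.2 r hr
    refine ⟨n * r, mul_mem (hNR hn) hr, ?_⟩
    show (n : G) * r = _
    rw [show (n : G) = _ from hnr, inv_mul_cancel_right]
  have hone : (1 : G) ∈ T := ⟨one_mem _, fun r _ => by simp⟩
  have hmul : ∀ t ∈ T, ∀ s ∈ T, t * s ∈ T := by
    intro t ht s hs
    refine ⟨mul_mem ht.1 hs.1, fun r hr => ?_⟩
    rw [show t * s * (r : G) * (t * s)⁻¹ * (r : G)⁻¹ =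
      t * (s * (r : G) * s⁻¹ * (r : G)⁻¹) * t⁻¹ * (t * (r : G) * t⁻¹ * (r : G)⁻¹) by group]
    exact mul_mem ((Subgroup.mem_normalizer_iff.mp ht.1 _).mp (hs.2 r hr)) (ht.2 r hr)
  let TG : Subgroup G :=
    { carrier := T
      one_mem' := hone
      mul_mem' := fun {a b} ha hb => hmul a ha b hb
      inv_mem' := fun {t} ht => by
        have hpow : ∀ i : ℕ, t ^ i ∈ T := fun i => by
          induction i with
          | zero => rw [pow_zero]; exact hone
          | succ i ih => rw [pow_succ]; exact hmul _ ih _ ht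
        have h1 : t ^ (orderOf t - 1) = t⁻¹ := by
          rw [eq_inv_iff_mul_eq_one, ← pow_succ, Nat.sub_add_cancel (orderOf_pos t), pow_orderOf_eq_one]
        show t⁻¹ ∈ T
        rw [← h1]
        exact hpow _ }
  have heT : e ∈ TG := by
    refine ⟨heN, fun r hr => ?_⟩
    obtain ⟨n, hn, q, hq, rfl⟩ := hdec r hr
    rw [Subgroup.coe_mul, show e * ((n : G) * q) * e⁻¹ * ((n : G) * q)⁻¹ =
      (e * (n : G) * e⁻¹) * ((e * (q : G)) * e⁻¹ * (q : G)⁻¹) * (n : G)⁻¹ by group,
      (hP q hq).eq, mul_inv_cancel_right, mul_inv_cancel, mul_one]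
    exact mul_mem ((Subgroup.mem_normalizer_iff.mp heN _).mp ⟨n, hn, rfl⟩) (inv_mem ⟨n, hn, rfl⟩)
  have hconj : X ≤ Subgroup.normalizer (TG : Set G) := by
    refine le_normalizer_of_conj_mem fun g hg t ht => ⟨mul_mem (mul_mem (hXN hg) ht.1)
      (inv_mem (hXN hg)), fun r hr => ?_⟩
    have : R.Normal := by rw [hR]; infer_instance
    have hr' : (⟨g, hg⟩ : X)⁻¹ * r * (⟨g, hg⟩ : X) ∈ R :=
      Subgroup.Normal.conj_mem' ‹_› r hr ⟨g, hg⟩
    have h1 := (Subgroup.mem_normalizer_iff.mp (hXN hg) _).mp (ht.2 _ hr')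
    rw [Subgroup.coe_mul, Subgroup.coe_mul, Subgroup.coe_inv] at h1
    rw [show g * t * g⁻¹ * (r : G) * (g * t * g⁻¹)⁻¹ * (r : G)⁻¹ =
      g * (t * (g⁻¹ * (r : G) * g) * t⁻¹ * (g⁻¹ * (r : G) * g)⁻¹) * g⁻¹ by group]
    exact h1
  have hZT : Subgroup.zpowers e ≤ TG := Subgroup.zpowers_le_of_mem heT
  have hC : ⁅X, Subgroup.zpowers e⁆ ≤ X := commutator_le_of_le_normalizer hZX
  have hCR : ⁅X, Subgroup.zpowers e⁆ ≤ R.map X.subtype := by
    intro c hc
    have hcT : c ∈ TG := (Subgroup.commutator_le.mpr fun g hg z hz => by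
      rw [commutatorElement_def]
      exact mul_mem (conj_mem_of_le_normalizer hconj hg (hZT hz)) (inv_mem (hZT hz))) hc
    refine ⟨⟨c, hC hc⟩, ?_, rfl⟩
    show π ⟨c, hC hc⟩ ∈ pCore x (X ⧸ pPrimeCore x X)
    refine CfsgLib.Constrained.centralizer_pCore_quotient_le
      CfsgLib.Constrained.isPSolvable_of_isSolvable (Subgroup.mem_centralizer_iff.mpr fun y hy => ?_)
    obtain ⟨r, rfl⟩ := QuotientGroup.mk'_surjective (pPrimeCore x X) y
    obtain ⟨n, hn, hnr⟩ := hcT.2 r hy
    have h1 : n = (⟨c, hC hc⟩ : X) * r * (⟨c, hC hc⟩ : X)⁻¹ * r⁻¹ := Subtype.ext hnr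
    have h2 : π ((⟨c, hC hc⟩ : X) * r * (⟨c, hC hc⟩ : X)⁻¹ * r⁻¹) = 1 := by
      rw [← h1]
      exact (QuotientGroup.eq_one_iff n).mpr hn
    rw [map_mul, map_mul, map_mul, map_inv, map_inv, mul_inv_eq_one, mul_inv_eq_iff_eq_mul] at h2
    exact h2.symm
  rw [← commutator_commutator_eq hZX hcop (Or.inl (isSolvable_zpowers e))]
  refine (Subgroup.commutator_mono hCR le_rfl).trans (Subgroup.commutator_le.mpr ?_)
  rintro _ ⟨r, hr, rfl⟩ z hz
  have h1 := inv_mem ((hZT hz).2 r hr)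
  rw [show (z * (r : G) * z⁻¹ * (r : G)⁻¹)⁻¹ = ⁅(r : G), z⁆ by
    simp only [commutatorElement_def]; group] at h1
  exact h1

/-- One maximal `x`-member centralised by `e` gives completeness. -/
theorem completes_of_centralizes_qmember (h : Setup p A θ) {x : ℕ} [Fact x.Prime] (hxp : x ≠ p)
    {S : Subgroup G} (hS : S ∈ signalizerFamily p A θ) (hSx : IsPGroup x S)
    (hSmax : ∀ R ∈ signalizerFamily p A θ, IsPGroup x R → S ≤ R → R = S)
    {e : G} (he : e ∈ A) (he1 : e ≠ 1) (hSe : S ≤ Subgroup.centralizer ({e} : Set G))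
    {V : Subgroup G} (hV : V ∈ signalizerFamily p A θ)
    (hVx : ∀ d ∈ A, d ≠ 1 → uCoreOf x (θ d) ≤ V) : Completes p A θ := by
  refine completes_of_commutators_le h hV he he1 fun d hd hd1 => ?_
  refine le_trans ?_ (hVx d hd hd1)
  obtain ⟨P, hPm, -⟩ := exists_sylow_member h.elem (theta_mem_family h.functor hd hd1) (q := x)
    bot_mem_family bot_le IsPGroup.of_bot
  refine commutator_le_uCoreOf (h.functor.2 d hd hd1) (theta_le_normalizer h.functor hd hd1 he)
    (coprime_of_le (Subgroup.zpowers_le_of_mem he) le_rfl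
      (family_coprime h.elem (h.functor.1.2.1 d hd hd1))) P fun q hq => ?_
  obtain ⟨Q, hQ, hQx, hle, hQmax⟩ := exists_max_family hPm (P.isPGroup'.map _)
  obtain ⟨k, hk, hQS⟩ :=
    family_transitivity h.elem h.card_ge h.functor hxp hS hSx hSmax hQ hQx hQmax
  obtain ⟨s, hs, hsq⟩ : (q : G) ∈ S.map (MulAut.conj k).toMonoidHom :=
    hQS ▸ hle ⟨q, hq, rfl⟩
  have hke : k ∈ Subgroup.centralizer ({e} : Set G) := Subgroup.centralizer_le
    (Set.singleton_subset_iff.mpr he) (mem_centralizer_of_signalizerInf h.functor hk)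
  refine (show (q : G) * e = e * q from Subgroup.mem_centralizer_singleton_iff.mp ?_).symm
  rw [← hsq]
  exact mul_mem (mul_mem hke (hSe hs)) (inv_mem hke)

end CfsgLib.SolvSignalizer
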